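import Mathlib

/-!
# A counting argument on involutions in a group of order `p (p - 1) (p - 2)` acting on `2 p` points
-/

set_option autoImplicit false
set_option linter.unusedSectionVars false
set_option linter.unusedVariables false
set_option linter.style.haveILetI false
set_option linter.unusedSimpArgs false

namespace Cfsg.Agent.Lib.BrauerP.TwoE

open MulAction
open scoped Classical

universe u v

/-- The counting argument. -/
theorem perm_core {G : Type u} [Group G] [Finite G] {α : Type v} [Fintype α] [MulAction G α] {p : ℕ}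
    [hp : Fact p.Prime] (hp5 : 3 < p) (hα : Fintype.card α = 2 * p) [IsPretransitive G α]
    (hG : Nat.card G = p * (p - 1) * (p - 2)) {τ : G} (hττ : τ * τ = 1) (hτ1 : τ ≠ 1)
    (hconj : ∀ x : G, x * x = 1 → x ≠ 1 → IsConj τ x)
    (hcent : ∀ x : G, x * x = 1 → x ≠ 1 → Nat.card (Subgroup.centralizer ({x} : Set G)) = p - 1)
    (hsq : ∀ x c : G, x * x = 1 → x ≠ 1 → c * x = x * c → c * c = 1)
    (hcl : Nat.card {x : G // IsConj τ x} = p * (p - 2))
    (hfix : ∀ x : G, x * x = 1 → x ≠ 1 → Nat.card (fixedBy α x) = 2) : p = 5 := by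
  classical
  let _ : Fintype G := Fintype.ofFinite G
  have hpos := hp.out.pos
  have hodd : p ≠ 2 := by omega
  have hoddp : p % 2 = 1 := by
    rcases hp.out.eq_two_or_odd with h | h
    · exact absurd h hodd
    · exact h
  obtain ⟨a⟩ : Nonempty α := by
    rw [← Fintype.card_pos_iff, hα]
    omega
  set Inv : Finset G := Finset.univ.filter (fun x => x * x = 1 ∧ x ≠ 1) with hInvdef
  have hInv : Inv.card = p * (p - 2) := by
    rw [← hcl, Nat.card_eq_fintype_card, Fintype.card_subtype]
    congr 1
    ext x
    simp only [hInvdef, Finset.mem_filter, Finset.mem_univ, true_and]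
    constructor
    · rintro ⟨h1, h2⟩
      exact hconj x h1 h2
    · intro h
      obtain ⟨g, rfl⟩ := isConj_iff.mp h
      constructor
      · calc g * τ * g⁻¹ * (g * τ * g⁻¹) = g * (τ * τ) * g⁻¹ := by group
          _ = 1 := by rw [hττ]; group
      · intro h0
        apply hτ1
        have : τ = g⁻¹ * (g * τ * g⁻¹) * g := by group
        rw [this, h0]
        group
  set T : α → Finset G := fun b => Inv.filter (fun x => x • b = b) with hTdef
  have hTeq : ∀ b, (T b).card = (T a).card := by
    intro b
    obtain ⟨g, hg⟩ := exists_smul_eq G a b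
    apply Finset.card_bij (fun x _ => g⁻¹ * x * g)
    · intro x hx
      simp only [hTdef, hInvdef, Finset.mem_filter, Finset.mem_univ, true_and] at hx ⊢
      obtain ⟨⟨h1, h2⟩, h3⟩ := hx
      refine ⟨⟨?_, ?_⟩, ?_⟩
      · calc g⁻¹ * x * g * (g⁻¹ * x * g) = g⁻¹ * (x * x) * g := by group
          _ = 1 := by rw [h1]; group
      · intro h0
        apply h2
        have : x = g * (g⁻¹ * x * g) * g⁻¹ := by group
        rw [this, h0]
        group
      · rw [mul_smul, mul_smul, hg, h3, inv_smul_eq_iff, hg]
    · intro x _ y _ hxy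
      simpa using hxy
    · intro y hy
      simp only [hTdef, hInvdef, Finset.mem_filter, Finset.mem_univ, true_and] at hy
      obtain ⟨⟨h1, h2⟩, h3⟩ := hy
      refine ⟨g * y * g⁻¹, ?_, by group⟩
      simp only [hTdef, hInvdef, Finset.mem_filter, Finset.mem_univ, true_and]
      refine ⟨⟨?_, ?_⟩, ?_⟩
      · calc g * y * g⁻¹ * (g * y * g⁻¹) = g * (y * y) * g⁻¹ := by group
          _ = 1 := by rw [h1]; group
      · intro h0
        apply h2
        have : y = g⁻¹ * (g * y * g⁻¹) * g := by group
        rw [this, h0]
        group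
      · rw [mul_smul, mul_smul, ← hg]
        rw [inv_smul_smul, h3]
  have hdouble : ∑ b : α, (T b).card = ∑ x ∈ Inv, (Finset.univ.filter (fun b : α => x • b = b)).card :=
    Finset.sum_card_bipartiteAbove_eq_sum_card_bipartiteBelow (fun (b : α) (x : G) => x • b = b)
  have hfixc : ∀ x ∈ Inv, (Finset.univ.filter (fun b : α => x • b = b)).card = 2 := by
    intro x hx
    simp only [hInvdef, Finset.mem_filter, Finset.mem_univ, true_and] at hx
    have h1 := hfix x hx.1 hx.2
    rw [Nat.card_eq_fintype_card] at h1
    rw [← h1, Fintype.card_subtype]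
    rfl
  have hTa : (T a).card = p - 2 := by
    rw [Finset.sum_congr rfl (fun b _ => hTeq b), Finset.sum_congr rfl hfixc, Finset.sum_const,
      Finset.sum_const, Finset.card_univ, hα, hInv, smul_eq_mul, smul_eq_mul] at hdouble
    have h1 : 2 * p * (T a).card = 2 * p * (p - 2) := by
      rw [hdouble]
      ring
    exact Nat.eq_of_mul_eq_mul_left (by omega) h1
  -- the stabilizer of `a`
  have hstab : Nat.card (stabilizer G a) * (2 * p) = p * (p - 1) * (p - 2) := by
    have h1 := Subgroup.card_mul_index (stabilizer G a)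
    rw [index_stabilizer, orbit_eq_univ, Set.ncard_univ, Nat.card_eq_fintype_card (α := α), hα, hG] at h1
    exact h1
  have hp1 : p - 1 = (p - 3) + 2 := by omega
  -- the stabilizer of `a` in the centralizer of a point stabilizing involution
  have hhalf : ∀ x ∈ T a, Nat.card {c : G // c ∈ Subgroup.centralizer ({x} : Set G) ∧ c • a = a} * 2 = p - 1 := by
    intro x hx
    simp only [hTdef, hInvdef, Finset.mem_filter, Finset.mem_univ, true_and] at hx
    obtain ⟨⟨hxx, hx1⟩, hxa⟩ := hx
    set H := Subgroup.centralizer ({x} : Set G) with hH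
    have hHc : Nat.card H = p - 1 := hcent x hxx hx1
    have hcomm : ∀ c : H, (c : G) * x = x * c := by
      intro c
      exact (Subgroup.mem_centralizer_iff.mp c.2 x (Set.mem_singleton x)).symm
    have hequiv : Nat.card {c : G // c ∈ H ∧ c • a = a} = Nat.card (stabilizer H a) := by
      apply Nat.card_congr
      exact
        { toFun := fun c => ⟨⟨c.1, c.2.1⟩, c.2.2⟩
          invFun := fun c => ⟨c.1.1, c.1.2, c.2⟩
          left_inv := fun c => rfl
          right_inv := fun c => rfl }
    rw [hequiv]
    have h1 := Subgroup.card_mul_index (stabilizer H a)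
    rw [index_stabilizer, hHc] at h1
    -- the orbit lies in the fixed points of `x`
    have hsub : orbit H a ⊆ (fixedBy α x : Set α) := by
      rintro _ ⟨c, rfl⟩
      show x • (c • a) = c • a
      have h2 : (c : G) • a = c • a := rfl
      rw [← h2, ← mul_smul, ← hcomm c, mul_smul, hxa]
    have hle : (orbit H a).ncard ≤ 2 := by
      have h2 := Set.ncard_le_ncard hsub (Set.toFinite _)
      have h3 : (fixedBy α x : Set α).ncard = 2 := hfix x hxx hx1
      omega
    have hne : (orbit H a).ncard ≠ 1 := by
      intro h2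
      have h3 : ∀ c : H, (c : G) • a = a := by
        intro c
        have h4 : orbit H a = {a} := by
          obtain ⟨y, hy⟩ := Set.ncard_eq_one.mp h2
          have h5 : a ∈ orbit H a := mem_orbit_self a
          rw [hy] at h5 ⊢
          rw [Set.mem_singleton_iff.mp h5]
        have h5 : c • a ∈ orbit H a := mem_orbit a c
        rw [h4] at h5
        exact h5
      have hle2 : H ≤ stabilizer G a := fun c hc => h3 ⟨c, hc⟩
      obtain ⟨s, hs⟩ := Subgroup.card_dvd_of_le hle2
      rw [hHc] at hs
      rw [hs] at hstab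
      have h4 : 2 * s = p - 2 := by
        have h5 : (p - 1) * p * (2 * s) = (p - 1) * p * (p - 2) := by
          calc (p - 1) * p * (2 * s) = (p - 1) * s * (2 * p) := by ring
            _ = p * (p - 1) * (p - 2) := hstab
            _ = (p - 1) * p * (p - 2) := by ring
        exact Nat.eq_of_mul_eq_mul_left (Nat.mul_pos (by omega) hpos) h5
      omega
    have hne0 : (orbit H a).ncard ≠ 0 := by
      exact Set.ncard_ne_zero_of_mem (mem_orbit_self a)
    have h2 : (orbit H a).ncard = 2 := by omega
    rw [h2] at h1
    exact h1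
  -- centralizers of commuting involutions coincide
  have hfib : ∀ x ∈ T a, ((T a).filter (fun y => Subgroup.centralizer ({y} : Set G) =
      Subgroup.centralizer ({x} : Set G))).card = (p - 3) / 2 := by
    intro x hx
    have hh := hhalf x hx
    simp only [hTdef, hInvdef, Finset.mem_filter, Finset.mem_univ, true_and] at hx
    obtain ⟨⟨hxx, hx1⟩, hxa⟩ := hx
    set H := Subgroup.centralizer ({x} : Set G) with hH
    have hHc : Nat.card H = p - 1 := hcent x hxx hx1
    have hmemH : ∀ c : G, c ∈ H ↔ c * x = x * c := by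
      intro c
      rw [hH, Subgroup.mem_centralizer_singleton_iff]
    set S : Finset G := Finset.univ.filter (fun c => c ∈ H ∧ c • a = a) with hS
    have hSc : S.card = Nat.card {c : G // c ∈ H ∧ c • a = a} := by
      rw [Nat.card_eq_fintype_card, Fintype.card_subtype]
    have h1S : (1 : G) ∈ S := by
      simp only [hS, Finset.mem_filter, Finset.mem_univ, true_and]
      exact ⟨H.one_mem, one_smul G a⟩
    have heq : (T a).filter (fun y => Subgroup.centralizer ({y} : Set G) = H) = S.erase 1 := by
      ext y
      simp only [hTdef, hInvdef, Finset.mem_filter, Finset.mem_univ, true_and, Finset.mem_erase, hS]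
      constructor
      · rintro ⟨⟨⟨hyy, hy1⟩, hya⟩, hyC⟩
        refine ⟨hy1, ?_, hya⟩
        rw [← hyC, Subgroup.mem_centralizer_singleton_iff]
      · rintro ⟨hy1, hyH, hya⟩
        have hyy : y * y = 1 := hsq x y hxx hx1 ((hmemH y).mp hyH)
        refine ⟨⟨⟨hyy, hy1⟩, hya⟩, ?_⟩
        have hle : H ≤ Subgroup.centralizer ({y} : Set G) := by
          intro c hc
          rw [Subgroup.mem_centralizer_singleton_iff]
          have hcc : c * c = 1 := hsq x c hxx hx1 ((hmemH c).mp hc)
          have hyc : (y * c) * (y * c) = 1 := hsq x (y * c) hxx hx1 ((hmemH _).mp (H.mul_mem hyH hc))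
          have hci : c⁻¹ = c := inv_eq_of_mul_eq_one_left hcc
          have hyi : y⁻¹ = y := inv_eq_of_mul_eq_one_left hyy
          have h2 : (y * c)⁻¹ = y * c := inv_eq_of_mul_eq_one_left hyc
          rw [mul_inv_rev, hci, hyi] at h2
          exact h2
        symm
        apply Subgroup.eq_of_le_of_card_ge hle
        rw [hcent y hyy hy1, hHc]
    rw [heq, Finset.card_erase_of_mem h1S, hSc]
    omega
  -- the partition
  have hpart := Finset.card_eq_sum_card_image (fun y : G => Subgroup.centralizer ({y} : Set G)) (T a)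
  have hfib' : ∀ C ∈ (T a).image (fun y : G => Subgroup.centralizer ({y} : Set G)),
      ((T a).filter (fun y => Subgroup.centralizer ({y} : Set G) = C)).card = (p - 3) / 2 := by
    intro C hC
    obtain ⟨x, hx, rfl⟩ := Finset.mem_image.mp hC
    exact hfib x hx
  rw [Finset.sum_congr rfl hfib', Finset.sum_const, smul_eq_mul, hTa] at hpart
  obtain ⟨k, hk⟩ : ∃ k, p - 3 = 2 * k := ⟨(p - 3) / 2, by omega⟩
  have hk2 : (p - 3) / 2 = k := by omega
  rw [hk2] at hpart
  have hk1 : k ∣ 2 * k + 1 := by
    have h1 : p - 2 = 2 * k + 1 := by omega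
    rw [← h1, hpart]
    exact dvd_mul_left _ _
  have hk3 : k ∣ 1 := (Nat.dvd_add_right (dvd_mul_left k 2)).mp hk1
  have hk4 : k = 1 := Nat.dvd_one.mp hk3
  omega

end Cfsg.Agent.Lib.BrauerP.TwoE
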